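import Cfsg.Agent.Lib.OddLocal.Fitting
import Cfsg.Prelude.Def_OddOrderLocal

/-!
Group theory behind S1538: TI-subsets attached to a maximal subgroup of Type II.
-/

set_option autoImplicit false
set_option linter.unusedSectionVars false

namespace Cfsg.Agent.Lib.Misc7.TypeIIKit

open Subgroup Cfsg Cfsg.Agent.Lib.OddLocal

variable {G : Type*} [Group G] [Finite G]

/-- Normalizer of an `M`-invariant subset of a maximal subgroup of a simple group. -/
theorem normalizer_eq_of_invariant [IsSimpleGroup G] {M : Subgroup G} (hM : IsCoatom M) {X : Set G}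
    (hXM : X ⊆ M) (hne : ∃ x ∈ X, x ≠ 1) (hinv : ∀ m ∈ M, ∀ x ∈ X, m * x * m⁻¹ ∈ X) :
    normalizer X = M := by
  have hle : M ≤ normalizer X := by
    intro m hm
    rw [mem_set_normalizer_iff]
    intro h
    refine ⟨hinv m hm h, fun h' => ?_⟩
    have := hinv m⁻¹ (M.inv_mem hm) _ h'
    have e : m⁻¹ * (m * h * m⁻¹) * m⁻¹⁻¹ = h := by group
    rwa [e] at this
  refine (eq_of_le_of_not_lt hle ?_).symm
  intro hlt
  have htop : normalizer X = ⊤ := hM.2 _ hlt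
  obtain ⟨x, hx, hx1⟩ := hne
  have hnorm : (normalClosure X).Normal := normalClosure_normal
  have hcl : normalClosure X ≤ M := by
    refine (closure_le _).2 ?_
    intro y hy
    rw [Group.mem_conjugatesOfSet_iff] at hy
    obtain ⟨a, ha, hc⟩ := hy
    obtain ⟨c, rfl⟩ := isConj_iff.1 hc
    have hcn : c ∈ normalizer X := by rw [htop]; trivial
    exact hXM ((mem_set_normalizer_iff.1 hcn a).1 ha)
  rcases IsSimpleGroup.eq_bot_or_eq_top_of_normal _ hnorm with h | h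
  · have : x ∈ normalClosure X := subset_normalClosure hx
    rw [h] at this
    exact hx1 (by simpa using this)
  · rw [h] at hcl
    exact hM.1 (top_le_iff.1 hcl)

/-- Elements of a join of commuting subgroups are products. -/
theorem exists_mul_of_mem_sup_comm {A B : Subgroup G} (hc : ∀ a ∈ A, ∀ b ∈ B, a * b = b * a) {x : G}
    (hx : x ∈ A ⊔ B) : ∃ a ∈ A, ∃ b ∈ B, x = a * b := by
  let K : Subgroup G :=
    { carrier := {x | ∃ a ∈ A, ∃ b ∈ B, x = a * b}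
      one_mem' := ⟨1, A.one_mem, 1, B.one_mem, by simp⟩
      mul_mem' := by
        rintro _ _ ⟨a, ha, b, hb, rfl⟩ ⟨a', ha', b', hb', rfl⟩
        refine ⟨a * a', A.mul_mem ha ha', b * b', B.mul_mem hb hb', ?_⟩
        have := hc a' ha' b hb
        calc a * b * (a' * b') = a * (b * a') * b' := by group
          _ = a * (a' * b) * b' := by rw [this]
          _ = _ := by group
      inv_mem' := by
        rintro _ ⟨a, ha, b, hb, rfl⟩
        refine ⟨a⁻¹, A.inv_mem ha, b⁻¹, B.inv_mem hb, ?_⟩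
        have := hc a ha b hb
        rw [mul_inv_rev]
        have h2 : b⁻¹ * a⁻¹ = (a * b)⁻¹ := by rw [mul_inv_rev]
        have h3 : a⁻¹ * b⁻¹ = (b * a)⁻¹ := by rw [mul_inv_rev]
        rw [h2, h3, this] }
  have hA : A ≤ K := fun a ha => ⟨a, ha, 1, B.one_mem, by simp⟩
  have hB : B ≤ K := fun b hb => ⟨1, A.one_mem, b, hb, by simp⟩
  exact (sup_le hA hB) hx

/-- A conjugation preserving a cyclic subgroup preserves every subgroup of it. -/
theorem conj_mem_of_cyclic {W S : Subgroup G} (hW : IsCyclic W) (hS : S ≤ W) {g : G}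
    (hg : ∀ y ∈ W, g * y * g⁻¹ ∈ W) {y : G} (hy : y ∈ S) : g * y * g⁻¹ ∈ S := by
  obtain ⟨c, hc⟩ := hW.exists_generator
  have hcg := hg c c.2
  obtain ⟨k, hk⟩ := mem_zpowers_iff.1 (hc ⟨_, hcg⟩)
  have hk' : (c : G) ^ k = g * c * g⁻¹ := by
    have := congrArg Subtype.val hk
    simpa using this
  obtain ⟨j, hj⟩ := mem_zpowers_iff.1 (hc ⟨y, hS hy⟩)
  have hj' : (c : G) ^ j = y := by
    have := congrArg Subtype.val hj
    simpa using this
  have e : g * y * g⁻¹ = y ^ k := by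
    rw [← hj', ← conj_zpow, ← hk', ← zpow_mul, ← zpow_mul, mul_comm]
  rw [e]
  exact S.zpow_mem hy k

/-- A Hall-type criterion inside `M`: an element of `M` whose `|M_F|`-th power is trivial lies in `M_F`. -/
theorem mem_fittingHallOf_of_pow {M : Subgroup G} {y : G} (hy : y ∈ M)
    (hp : y ^ Nat.card (fittingHallOf M) = 1) : y ∈ fittingHallOf M := by
  have hco := fittingHall_coprime M
  rw [card_fittingHallOf] at hp
  let y' : M := ⟨y, hy⟩
  have hp' : y' ^ Nat.card (fittingHall M) = 1 := by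
    apply Subtype.ext
    simpa [y'] using hp
  have h2 : ((y' : M ⧸ fittingHall M)) ^ Nat.card (fittingHall M) = 1 := by
    rw [← QuotientGroup.mk_pow, hp']
    rfl
  have h3 : ((y' : M ⧸ fittingHall M)) ^ (fittingHall M).index = 1 := by
    rw [index_eq_card]
    exact pow_card_eq_one'
  have h4 := pow_gcd_eq_one.2 ⟨h2, h3⟩
  rw [hco.gcd_eq_one, pow_one] at h4
  have h5 : y' ∈ fittingHall M := (QuotientGroup.eq_one_iff y').1 h4
  exact ⟨y', h5, rfl⟩

theorem pow_card_eq_one_of_mem {H : Subgroup G} {y : G} (hy : y ∈ H) : y ^ Nat.card H = 1 := by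
  have h : (⟨y, hy⟩ : H) ^ Nat.card H = 1 := pow_card_eq_one'
  exact congrArg Subtype.val h

theorem mem_norm_singleton {y w : G} : y ∈ normalizer ({w} : Set G) ↔ y * w * y⁻¹ = w := by
  constructor
  · intro h
    exact (mem_set_normalizer_iff.1 h w).1 rfl
  · intro e
    rw [mem_set_normalizer_iff]
    intro n
    constructor
    · rintro rfl
      exact e
    · intro hn
      have h1 : y * n * y⁻¹ = y * w * y⁻¹ := Eq.trans hn e.symm
      exact mul_left_cancel (mul_right_cancel h1)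

theorem conj_ne_one' {x : G} (g : G) (hx : x ≠ 1) : g * x * g⁻¹ ≠ 1 := by
  intro h
  apply hx
  have e : x = g⁻¹ * (g * x * g⁻¹) * g := by group
  rw [e, h]
  group

section Data

variable {M W₁ U W₂ : Subgroup G}

/-- The set `W₁W₂ \ (W₁ ∪ W₂)`. -/
def hatSet (W₁ W₂ : Subgroup G) : Set G := (↑(W₁ ⊔ W₂) : Set G) \ ((W₁ : Set G) ∪ ↑W₂)

theorem data_W₁_le (hP : IsTypePWith M W₁ U W₂) : W₁ ≤ M := hP.W₁_compl.2.1

theorem data_W₂_le (hP : IsTypePWith M W₁ U W₂) : W₂ ≤ M :=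
  hP.W₂_le.trans (inf_le_left.trans (fittingHallOf_le M))

theorem data_sup_le (hP : IsTypePWith M W₁ U W₂) : W₁ ⊔ W₂ ≤ M :=
  sup_le (data_W₁_le hP) (data_W₂_le hP)

theorem data_W₂_le_comm (hP : IsTypePWith M W₁ U W₂) : W₂ ≤ ⁅M, M⁆ :=
  (hP.W₂_le.trans inf_le_left).trans hP.U_compl.1

theorem data_comm (hP : IsTypePWith M W₁ U W₂) : ∀ a ∈ W₁, ∀ b ∈ W₂, a * b = b * a :=
  hP.selfNormalizing.2.2.2.1

theorem data_cyclic (hP : IsTypePWith M W₁ U W₂) : IsCyclic ↥(W₁ ⊔ W₂) :=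
  hP.selfNormalizing.2.2.2.2.1

theorem data_norm (hP : IsTypePWith M W₁ U W₂) {X : Set G} (hX : X ⊆ hatSet W₁ W₂) (hne : X.Nonempty) :
    normalizer X = W₁ ⊔ W₂ :=
  hP.selfNormalizing.2.2.2.2.2 X hX hne

theorem data_relIndex (hP : IsTypePWith M W₁ U W₂) : W₁.relIndex M = Nat.card (⁅M, M⁆ : Subgroup G) := by
  have h1 := IsComplIn_card_eq hP.W₁_compl
  have h2 : Nat.card W₁ * W₁.relIndex M = Nat.card M := card_mul_relIndex (data_W₁_le hP)
  rw [h1, mul_comm] at h2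
  exact Nat.eq_of_mul_eq_mul_right Nat.card_pos h2

theorem data_coprime (hP : IsTypePWith M W₁ U W₂) : (Nat.card W₁).Coprime (Nat.card (⁅M, M⁆ : Subgroup G)) := by
  rw [← data_relIndex hP]
  exact hP.W₁_hall

/-- If a conjugation carries a point of `hatSet` to a point of `hatSet`, it lies in `W₁W₂`. -/
theorem conj_hat_mem (hP : IsTypePWith M W₁ U W₂) {g w w' : G} (hw : w ∈ hatSet W₁ W₂)
    (hw' : w' ∈ hatSet W₁ W₂) (e : g * w * g⁻¹ = w') : g ∈ W₁ ⊔ W₂ := by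
  have hc₁ : normalizer ({w} : Set G) = W₁ ⊔ W₂ :=
    data_norm hP (Set.singleton_subset_iff.2 hw) ⟨w, rfl⟩
  have hc₂ : normalizer ({w'} : Set G) = W₁ ⊔ W₂ :=
    data_norm hP (Set.singleton_subset_iff.2 hw') ⟨w', rfl⟩
  have step : ∀ {g w w' : G}, normalizer ({w} : Set G) = W₁ ⊔ W₂ → normalizer ({w'} : Set G) = W₁ ⊔ W₂ →
      g * w * g⁻¹ = w' → ∀ y ∈ W₁ ⊔ W₂, g * y * g⁻¹ ∈ W₁ ⊔ W₂ := by
    intro g w w' h1 h2 e y hy
    rw [← h1, mem_norm_singleton] at hy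
    rw [← h2, mem_norm_singleton]
    calc g * y * g⁻¹ * w' * (g * y * g⁻¹)⁻¹ = g * (y * w * y⁻¹) * g⁻¹ := by rw [← e]; group
      _ = w' := by rw [hy, e]
  have hg := step hc₁ hc₂ e
  have e' : g⁻¹ * w' * g⁻¹⁻¹ = w := by rw [← e]; group
  have hg' := step hc₂ hc₁ e'
  have hcy := data_cyclic hP
  rw [← data_norm hP (Set.Subset.refl _) ⟨w, hw⟩, mem_set_normalizer_iff]
  intro h
  constructor
  · rintro ⟨hW, hn⟩
    refine ⟨hg h hW, fun hor => hn ?_⟩
    have ehh : g⁻¹ * (g * h * g⁻¹) * g⁻¹⁻¹ = h := by group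
    rcases hor with h1 | h1
    · left
      have := conj_mem_of_cyclic hcy le_sup_left hg' h1
      rwa [ehh] at this
    · right
      have := conj_mem_of_cyclic hcy le_sup_right hg' h1
      rwa [ehh] at this
  · rintro ⟨hW, hn⟩
    have ehh : g⁻¹ * (g * h * g⁻¹) * g⁻¹⁻¹ = h := by group
    have hhW : h ∈ W₁ ⊔ W₂ := by
      have := hg' _ hW
      rwa [ehh] at this
    refine ⟨hhW, fun hor => hn ?_⟩
    rcases hor with h1 | h1
    · left
      exact conj_mem_of_cyclic hcy le_sup_left hg h1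
    · right
      exact conj_mem_of_cyclic hcy le_sup_right hg h1

/-- The `M`-conjugates of `hatSet` form a TI-subset off `M`. -/
theorem conj_hat_ti (hP : IsTypePWith M W₁ U W₂) {g n₁ n₂ w₁ w₂ : G} (hg : g ∉ M) (hn₁ : n₁ ∈ M) (hn₂ : n₂ ∈ M)
    (hw₁ : w₁ ∈ hatSet W₁ W₂) (hw₂ : w₂ ∈ hatSet W₁ W₂)
    (e : g * (n₁ * w₁ * n₁⁻¹) * g⁻¹ = n₂ * w₂ * n₂⁻¹) : False := by
  have e' : (n₂⁻¹ * g * n₁) * w₁ * (n₂⁻¹ * g * n₁)⁻¹ = w₂ := by
    calc (n₂⁻¹ * g * n₁) * w₁ * (n₂⁻¹ * g * n₁)⁻¹ = n₂⁻¹ * (g * (n₁ * w₁ * n₁⁻¹) * g⁻¹) * n₂ := by group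
      _ = w₂ := by rw [e]; group
  have h1 := data_sup_le hP (conj_hat_mem hP hw₁ hw₂ e')
  apply hg
  have e2 : g = n₂ * (n₂⁻¹ * g * n₁) * n₁⁻¹ := by group
  rw [e2]
  exact M.mul_mem (M.mul_mem hn₂ h1) (M.inv_mem hn₁)

/-- No conjugate of a point of `hatSet` lies in `M'`. -/
theorem hat_not_comm (hP : IsTypePWith M W₁ U W₂) {w : G} (hw : w ∈ hatSet W₁ W₂) (g : G) :
    g * w * g⁻¹ ∉ ⁅M, M⁆ := by
  intro ht
  have h1 := pow_card_eq_one_of_mem ht
  rw [conj_pow] at h1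
  have hwn : w ^ Nat.card (⁅M, M⁆ : Subgroup G) = 1 := by
    by_contra hne
    exact conj_ne_one' g hne h1
  obtain ⟨a, ha, b, hb, rfl⟩ := exists_mul_of_mem_sup_comm (data_comm hP) hw.1
  have hcomm : Commute a b := data_comm hP a ha b hb
  rw [hcomm.mul_pow, pow_card_eq_one_of_mem (data_W₂_le_comm hP hb), mul_one] at hwn
  have h2 := pow_card_eq_one_of_mem ha
  have h3 := pow_gcd_eq_one.2 ⟨h2, hwn⟩
  rw [(data_coprime hP).gcd_eq_one, pow_one] at h3
  subst h3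
  apply hw.2
  right
  simpa using hb

/-- All type-P data with prime `|W₁|` are `M`-conjugate. -/
theorem data_conj {W₁' U' W₂' : Subgroup G} (hP : IsTypePWith M W₁ U W₂) (hp : (Nat.card W₁).Prime)
    (hP' : IsTypePWith M W₁' U' W₂') :
    ∃ m ∈ M, (∀ x, x ∈ W₁' ↔ m * x * m⁻¹ ∈ W₁) ∧ (∀ x, x ∈ W₂' ↔ m * x * m⁻¹ ∈ W₂) := by
  classical
  have hcard : Nat.card W₁' = Nat.card W₁ := by
    have h1 := IsComplIn_card_eq hP.W₁_compl
    have h2 := IsComplIn_card_eq hP'.W₁_compl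
    rw [h1] at h2
    exact (Nat.eq_of_mul_eq_mul_left Nat.card_pos h2).symm
  set p := Nat.card W₁ with hpdef
  have := Fact.mk hp
  have hcop := data_coprime hP
  have hndvd : ¬ p ∣ Nat.card (⁅M, M⁆ : Subgroup G) := by
    intro hd
    have := Nat.Coprime.eq_one_of_dvd hcop hd
    exact hp.one_lt.ne' this
  have hfac : (Nat.card M).factorization p = 1 := by
    rw [IsComplIn_card_eq hP.W₁_compl, ← hpdef, Nat.factorization_mul Nat.card_pos.ne' hp.ne_zero,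
      Finsupp.add_apply, Nat.factorization_eq_zero_of_not_dvd hndvd, hp.factorization_self]
  have hc₁ : Nat.card (W₁.subgroupOf M) = p ^ (Nat.card M).factorization p := by
    rw [hfac, pow_one, hpdef]
    exact Nat.card_congr (subgroupOfEquivOfLe (data_W₁_le hP)).toEquiv
  have hc₂ : Nat.card (W₁'.subgroupOf M) = p ^ (Nat.card M).factorization p := by
    rw [hfac, pow_one, ← hcard]
    exact Nat.card_congr (subgroupOfEquivOfLe (data_W₁_le hP')).toEquiv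
  let P : Sylow p M := Sylow.ofCard _ hc₁
  let P' : Sylow p M := Sylow.ofCard _ hc₂
  obtain ⟨m, hm⟩ := MulAction.exists_smul_eq M P' P
  have key : ∀ y : M, y ∈ W₁'.subgroupOf M ↔ m * y * m⁻¹ ∈ W₁.subgroupOf M := by
    intro y
    have h3 : (P : Subgroup M) = W₁.subgroupOf M := Sylow.coe_ofCard _ _
    have h4 : (P' : Subgroup M) = W₁'.subgroupOf M := Sylow.coe_ofCard _ _
    rw [← h3, ← h4, ← hm, Sylow.coe_subgroup_smul]
    exact (Subgroup.smul_mem_pointwise_smul_iff (a := MulAut.conj m) (S := (P' : Subgroup M)) (x := y)).symm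
  have hmM : (m : G) ∈ M := m.2
  have key₁ : ∀ x, x ∈ W₁' ↔ (m : G) * x * (m : G)⁻¹ ∈ W₁ := by
    intro x
    constructor
    · intro hx
      have := (key ⟨x, data_W₁_le hP' hx⟩).1 (by simpa [mem_subgroupOf] using hx)
      simpa [mem_subgroupOf] using this
    · intro hx
      have hxM : x ∈ M := by
        have h1 := data_W₁_le hP hx
        have e : x = (m : G)⁻¹ * ((m : G) * x * (m : G)⁻¹) * m := by group
        rw [e]
        exact M.mul_mem (M.mul_mem (M.inv_mem hmM) h1) hmM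
      have := (key ⟨x, hxM⟩).2 (by simpa [mem_subgroupOf] using hx)
      simpa [mem_subgroupOf] using this
  refine ⟨m, hmM, key₁, ?_⟩
  obtain ⟨x', hx', hx'1⟩ := (Subgroup.bot_or_exists_ne_one W₁').resolve_left hP'.W₁_ne
  have hx := (key₁ x').1 hx'
  have hx1 := conj_ne_one' (m : G) hx'1
  intro y
  rw [← hP'.W₂_centralizer x' hx' hx'1, ← hP.W₂_centralizer _ hx hx1]
  simp only [mem_inf]
  have hcomm := mem_normalizer_iff.1 (normalizer_commutator_ge_left (H₁ := M) (H₂ := M) hmM) y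
  refine and_congr hcomm ?_
  simp only [mem_centralizer_iff, Set.mem_singleton_iff, forall_eq]
  constructor
  · intro h
    calc (m : G) * x' * (m : G)⁻¹ * ((m : G) * y * (m : G)⁻¹) = m * (x' * y) * (m : G)⁻¹ := by group
      _ = m * (y * x') * (m : G)⁻¹ := by rw [h]
      _ = _ := by group
  · intro h
    have h2 : (m : G) * (x' * y) * (m : G)⁻¹ = (m : G) * (y * x') * (m : G)⁻¹ := by
      calc (m : G) * (x' * y) * (m : G)⁻¹ = (m : G) * x' * (m : G)⁻¹ * ((m : G) * y * (m : G)⁻¹) := by group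
        _ = _ := h
        _ = _ := by group
    exact mul_left_cancel (mul_right_cancel h2)

/-- Reduction of `A₀ \ A` to one choice of data. -/
theorem hat_reduce (hP : IsTypePWith M W₁ U W₂) (hp : (Nat.card W₁).Prime) {v : G}
    (hv : ∃ W₁' U' W₂' : Subgroup G, IsTypePWith M W₁' U' W₂' ∧
      ∃ m ∈ M, ∃ w ∈ W₁' ⊔ W₂', w ∉ W₁' ∧ w ∉ W₂' ∧ v = m * w * m⁻¹) :
    ∃ n ∈ M, ∃ w ∈ hatSet W₁ W₂, v = n * w * n⁻¹ := by
  obtain ⟨W₁', U', W₂', hP', m, hm, w, hw, hw₁, hw₂, rfl⟩ := hv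
  obtain ⟨m₀, hm₀, key₁, key₂⟩ := data_conj hP hp hP'
  refine ⟨m * m₀⁻¹, M.mul_mem hm (M.inv_mem hm₀), m₀ * w * m₀⁻¹, ⟨?_, ?_⟩, by group⟩
  · obtain ⟨a, ha, b, hb, rfl⟩ := exists_mul_of_mem_sup_comm (data_comm hP') hw
    have e : m₀ * (a * b) * m₀⁻¹ = (m₀ * a * m₀⁻¹) * (m₀ * b * m₀⁻¹) := by group
    rw [SetLike.mem_coe, e]
    exact (W₁ ⊔ W₂).mul_mem ((le_sup_left : W₁ ≤ W₁ ⊔ W₂) ((key₁ a).1 ha))
      ((le_sup_right : W₂ ≤ W₁ ⊔ W₂) ((key₂ b).1 hb))
  · rintro (h | h)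
    · exact hw₁ ((key₁ w).2 h)
    · exact hw₂ ((key₂ w).2 h)

end Data

/-- The group-theoretic core of S1538. -/
theorem typeII_core [IsSimpleGroup G] {M : Subgroup G} (hM : IsCoatom M) (hII : IsOfTypeII M)
    (hnotI : ¬ IsOfTypeI M) (hnot34 : ¬ (IsOfTypeIII M ∨ IsOfTypeIV M))
    (hTI : IsTISubset (typeA M \ typeA1 M)) :
    (IsTISubset (typeA0 M) ∧ normalizer (typeA0 M) = M) ∧
      (IsTISubset (typeA M) ∧ normalizer (typeA M) = M) ∧
      (IsTISubset (typeA1 M) ∧ normalizer (typeA1 M) = M) := by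
  classical
  obtain ⟨W₁, U, W₂, hP, -, hp, hFTI, -⟩ := hII
  have hcore : typeCore M = fittingHallOf M := by rw [typeCore, if_neg hnot34]
  have hA1 : ∀ x, x ∈ typeA1 M ↔ x ∈ fittingHallOf M ∧ x ≠ 1 := by
    intro x
    rw [typeA1, hcore]
    simp
  have hA : ∀ a, a ∈ typeA M ↔ a ∈ ⁅M, M⁆ ∧ a ≠ 1 ∧ ∃ x ∈ fittingHallOf M, x ≠ 1 ∧ a * x = x * a := by
    intro a
    rw [typeA, if_neg hnotI, hcore]
    rfl
  have hHM : fittingHallOf M ≤ M := fittingHallOf_le M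
  have hHcomm : fittingHallOf M ≤ ⁅M, M⁆ := hP.U_compl.1
  have hcommM : ⁅M, M⁆ ≤ M := hP.W₁_compl.1
  have hHF : fittingHallOf M ≤ fittingOf M := by
    rw [← hP.fitting_eq]
    exact le_sup_left
  have hinvH : ∀ m ∈ M, ∀ x ∈ fittingHallOf M, m * x * m⁻¹ ∈ fittingHallOf M := fun m hm x hx =>
    (mem_normalizer_iff.1 (fittingHallOf_normalized M hm) x).1 hx
  have hinvC : ∀ m ∈ M, ∀ x ∈ ⁅M, M⁆, m * x * m⁻¹ ∈ ⁅M, M⁆ := fun m hm x hx =>
    (mem_normalizer_iff.1 (normalizer_commutator_ge_left (H₁ := M) (H₂ := M) hm) x).1 hx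
  obtain ⟨x₀, hx₀, hx₀1⟩ : ∃ x ∈ fittingHallOf M, x ≠ 1 := by
    refine (Subgroup.bot_or_exists_ne_one _).resolve_left ?_
    intro h
    apply hP.H_not_cyclic
    rw [h]
    infer_instance
  have hNF : normalizer (fittingOf M : Set G) = M :=
    normalizer_eq_of_invariant hM (fittingOf_le M) ⟨x₀, hHF hx₀, hx₀1⟩ (fun m hm x hx =>
      (mem_normalizer_iff.1 (fittingOf_normalized M hm) x).1 hx)
  -- invariance
  have hinvA1 : ∀ m ∈ M, ∀ x ∈ typeA1 M, m * x * m⁻¹ ∈ typeA1 M := by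
    intro m hm x hx
    rw [hA1] at hx ⊢
    exact ⟨hinvH m hm x hx.1, conj_ne_one' m hx.2⟩
  have hinvA : ∀ m ∈ M, ∀ a ∈ typeA M, m * a * m⁻¹ ∈ typeA M := by
    intro m hm a ha
    rw [hA] at ha ⊢
    obtain ⟨h1, h2, x, hx, hx1, hax⟩ := ha
    refine ⟨hinvC m hm a h1, conj_ne_one' m h2, m * x * m⁻¹, hinvH m hm x hx, conj_ne_one' m hx1, ?_⟩
    have h3 : m * a * m⁻¹ * (m * x * m⁻¹) = m * (a * x) * m⁻¹ := by group
    have h4 : m * x * m⁻¹ * (m * a * m⁻¹) = m * (x * a) * m⁻¹ := by group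
    rw [h3, h4, hax]
  have hA_M : ∀ a ∈ typeA M, a ∈ M := fun a ha => hcommM ((hA a).1 ha).1
  have hx₀A : x₀ ∈ typeA M := (hA x₀).2 ⟨hHcomm hx₀, hx₀1, x₀, hx₀, hx₀1, rfl⟩
  have hN1 : normalizer (typeA1 M) = M :=
    normalizer_eq_of_invariant hM (fun x hx => hHM ((hA1 x).1 hx).1) ⟨x₀, (hA1 x₀).2 ⟨hx₀, hx₀1⟩, hx₀1⟩ hinvA1
  have hNA : normalizer (typeA M) = M :=
    normalizer_eq_of_invariant hM hA_M ⟨x₀, hx₀A, hx₀1⟩ hinvA
  -- the set `A₀`
  have hA0M : ∀ v ∈ typeA0 M, v ∈ M := by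
    rintro v (hv | ⟨-, W₁', U', W₂', hP', m, hm, w, hw, -, -, rfl⟩)
    · exact hA_M v hv
    · exact M.mul_mem (M.mul_mem hm (data_sup_le hP' hw)) (M.inv_mem hm)
  have hinvA0 : ∀ m ∈ M, ∀ v ∈ typeA0 M, m * v * m⁻¹ ∈ typeA0 M := by
    rintro m hm v (hv | ⟨hI, W₁', U', W₂', hP', n, hn, w, hw, hw₁, hw₂, rfl⟩)
    · exact Or.inl (hinvA m hm v hv)
    · exact Or.inr ⟨hI, W₁', U', W₂', hP', m * n, M.mul_mem hm hn, w, hw, hw₁, hw₂, by group⟩
  have hN0 : normalizer (typeA0 M) = M :=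
    normalizer_eq_of_invariant hM hA0M ⟨x₀, Or.inl hx₀A, hx₀1⟩ hinvA0
  have hTI1 : IsTISubset (typeA1 M) := by
    intro g hg x hx hgx
    rw [hN1] at hg
    rw [hA1] at hx hgx
    exact hFTI g (by rwa [hNF]) x (hHF hx.1) (hHF hgx.1)
  have hTIA : IsTISubset (typeA M) := by
    intro g hg a ha hga
    rw [hNA] at hg
    have ha' := (hA a).1 ha
    have hga' := (hA _).1 hga
    by_cases haH : a ∈ fittingHallOf M
    · have h1 : g * a * g⁻¹ ∈ fittingHallOf M := by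
        refine mem_fittingHallOf_of_pow (hcommM hga'.1) ?_
        rw [conj_pow, pow_card_eq_one_of_mem haH]
        group
      exact hFTI g (by rwa [hNF]) a (hHF haH) (hHF h1)
    · have h1 : g * a * g⁻¹ ∉ fittingHallOf M := by
        intro h
        apply haH
        refine mem_fittingHallOf_of_pow (hcommM ha'.1) ?_
        have h2 := pow_card_eq_one_of_mem h
        rw [conj_pow] at h2
        by_contra hne
        exact conj_ne_one' g hne h2
      have hX : normalizer (typeA M \ typeA1 M) = M := by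
        refine normalizer_eq_of_invariant hM (fun x hx => hA_M x hx.1)
          ⟨a, ⟨ha, fun h => haH ((hA1 a).1 h).1⟩, ha'.2.1⟩ ?_
        rintro m hm x ⟨hx, hx1⟩
        refine ⟨hinvA m hm x hx, fun h => hx1 ?_⟩
        have := hinvA1 m⁻¹ (M.inv_mem hm) _ h
        have e : m⁻¹ * (m * x * m⁻¹) * m⁻¹⁻¹ = x := by group
        rwa [e] at this
      exact hTI g (by rwa [hX]) a ⟨ha, fun h => haH ((hA1 a).1 h).1⟩ ⟨hga, fun h => h1 ((hA1 _).1 h).1⟩
  have hTI0 : IsTISubset (typeA0 M) := by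
    intro g hg a ha hga
    rw [hN0] at hg
    rcases ha with ha | ⟨-, ha⟩
    · rcases hga with hga | ⟨-, hga⟩
      · exact hTIA g (by rwa [hNA]) a ha hga
      · exfalso
        obtain ⟨n, hn, w, hw, e⟩ := hat_reduce hP hp hga
        have e2 : a = (g⁻¹ * n) * w * (g⁻¹ * n)⁻¹ := by
          have : a = g⁻¹ * (g * a * g⁻¹) * g := by group
          rw [this, e]
          group
        have := ((hA a).1 ha).1
        rw [e2] at this
        exact hat_not_comm hP hw _ this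
    · obtain ⟨n₁, hn₁, w₁, hw₁, rfl⟩ := hat_reduce hP hp ha
      rcases hga with hga | ⟨-, hga⟩
      · exfalso
        have := ((hA _).1 hga).1
        have e : g * (n₁ * w₁ * n₁⁻¹) * g⁻¹ = (g * n₁) * w₁ * (g * n₁)⁻¹ := by group
        rw [e] at this
        exact hat_not_comm hP hw₁ _ this
      · exfalso
        obtain ⟨n₂, hn₂, w₂, hw₂, e⟩ := hat_reduce hP hp hga
        exact conj_hat_ti hP hg hn₁ hn₂ hw₁ hw₂ e
  exact ⟨⟨hTI0, hN0⟩, ⟨hTIA, hNA⟩, ⟨hTI1, hN1⟩⟩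

end Cfsg.Agent.Lib.Misc7.TypeIIKit
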